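import Cfsg.Agent.H532.Thr.Spread
import Cfsg.Agent.H532.Thr.Rf

/-!
# Orbits on a module and on its dual (helper529; the DUAL step of S4307)

* `stab_iff` : all orbits of a finite group `A` on `X` have size prime to `q` iff `A` has as many orbits on `X` as
  `N_A(Q)` has on the fixed points of the Sylow `q`-subgroup `Q`;
* `card_orbits_dual` : as many orbits on `X` as on the dual;
* `dual_main` : if all orbits on `X` have size prime to `q` (`q` not the characteristic), then also on the dual.
-/

set_option autoImplicit false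
set_option linter.unusedSectionVars false
set_option linter.style.haveILetI false

namespace Cfsg.Agent.H529.DualOrb

open Subgroup Cfsg.Agent.H532.Thr Module

/-- equality of fixed point numbers gives equality of orbit numbers -/
theorem card_orbits_eq {A X Y : Type*} [Group A] [Finite A] [Finite X] [Finite Y] [MulAction A X] [MulAction A Y]
    (h : ∀ a : A, Nat.card {x : X // a • x = x} = Nat.card {y : Y // a • y = y}) :
    Nat.card (MulAction.orbitRel.Quotient A X) = Nat.card (MulAction.orbitRel.Quotient A Y) := by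
  have := Fintype.ofFinite A
  have h1 := burnside A X
  have h2 := burnside A Y
  rw [Finset.sum_congr rfl fun a _ => h a] at h1
  exact Nat.eq_of_mul_eq_mul_right Fintype.card_pos (h1.symm.trans h2)

/-- equivariant bijections preserve the number of orbits -/
theorem card_orbits_equiv {A X Y : Type*} [Group A] [MulAction A X] [MulAction A Y]
    (e : X ≃ Y) (h : ∀ (a : A) (x : X), e (a • x) = a • e x) :
    Nat.card (MulAction.orbitRel.Quotient A X) = Nat.card (MulAction.orbitRel.Quotient A Y) := by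
  refine Nat.card_congr (Quotient.congr e ?_)
  intro x y
  constructor
  · rintro ⟨a, ha⟩
    exact ⟨a, by
      have ha' : a • y = x := ha
      show a • e y = e x
      rw [← h, ha']⟩
  · rintro ⟨a, ha⟩
    have ha' : a • e y = e x := ha
    exact ⟨a, e.injective (by
      show e (a • y) = e x
      rw [h, ha'])⟩

section Sylow

variable {A X : Type*} [Group A] [Finite A] [Finite X] [MulAction A X] {q : ℕ}

/-- fixed points of `Q` -/
abbrev FixQ (X : Type*) [MulAction A X] (Q : Sylow q A) : Type _ := {x : X // ∀ y ∈ Q, y • x = x}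

/-- the normaliser acts on the fixed points -/
instance actFix (Q : Sylow q A) : MulAction ↥(normalizer ((Q : Subgroup A) : Set A)) (FixQ X Q) where
  smul n x := ⟨(n : A) • x.1, fun y hy => by
    have h1 : (n : A)⁻¹ * y * (n : A)⁻¹⁻¹ ∈ (Q : Subgroup A) :=
      (mem_normalizer_iff.1 (inv_mem n.2) y).1 hy
    rw [inv_inv] at h1
    have h2 := x.2 _ h1
    calc y • (n : A) • x.1 = (n : A) • (((n : A)⁻¹ * y * n) • x.1) := by
          rw [smul_smul, smul_smul]; congr 1; group
      _ = (n : A) • x.1 := by rw [h2]⟩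
  one_smul x := Subtype.ext (one_smul A x.1)
  mul_smul n m x := Subtype.ext (mul_smul (n : A) (m : A) x.1)

theorem coe_smul (Q : Sylow q A) (n : ↥(normalizer ((Q : Subgroup A) : Set A))) (x : FixQ X Q) :
    (n • x).1 = (n : A) • x.1 := rfl

/-- all orbits have size prime to `q` iff the numbers of orbits agree -/
theorem stab_iff [hq : Fact q.Prime] (Q : Sylow q A) :
    (∀ x : X, ¬ q ∣ (MulAction.stabilizer A x).index) ↔
      Nat.card (MulAction.orbitRel.Quotient ↥(normalizer ((Q : Subgroup A) : Set A)) (FixQ X Q)) =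
        Nat.card (MulAction.orbitRel.Quotient A X) := by
  let j : MulAction.orbitRel.Quotient ↥(normalizer ((Q : Subgroup A) : Set A)) (FixQ X Q) →
      MulAction.orbitRel.Quotient A X := Quotient.map' (fun x => x.1) (by
    rintro x y ⟨n, hn⟩
    exact ⟨(n : A), congrArg Subtype.val hn⟩)
  have hinj : Function.Injective j := by
    intro a b
    induction a using Quotient.inductionOn' with | _ x =>
    induction b using Quotient.inductionOn' with | _ y =>
    intro h
    obtain ⟨a, ha⟩ := Quotient.exact' h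
    have ha' : a • y.1 = x.1 := ha
    -- `Q` and `a Q a⁻¹` are Sylow subgroups of the stabiliser of `x`
    have hQx : (Q : Subgroup A) ≤ MulAction.stabilizer A x.1 := fun z hz => x.2 z hz
    have hQy : ((a • Q : Sylow q A) : Subgroup A) ≤ MulAction.stabilizer A x.1 := by
      intro z hz
      have hz' : a⁻¹ * z * a ∈ Q := H532.Thr.mem_smul_sylow.1 hz
      have h1 := y.2 _ hz'
      show z • x.1 = x.1
      rw [← ha']
      calc z • a • y.1 = a • ((a⁻¹ * z * a) • y.1) := by rw [smul_smul, smul_smul]; congr 1; group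
        _ = a • y.1 := by rw [h1]
    obtain ⟨s, hs⟩ := MulAction.exists_smul_eq (MulAction.stabilizer A x.1) ((a • Q : Sylow q A).subtype hQy)
      (Q.subtype hQx)
    have hn : (s : A) * a ∈ normalizer ((Q : Subgroup A) : Set A) := by
      have key : ∀ z : A, z ∈ Q → (s : A) * a * z * ((s : A) * a)⁻¹ ∈ Q := by
        intro z hz
        have h1 : a * z * a⁻¹ ∈ (a • Q : Sylow q A) := by
          rw [H532.Thr.mem_smul_sylow]
          have e : a⁻¹ * (a * z * a⁻¹) * a = z := by group
          rw [e]; exact hz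
        have h2 : (⟨a * z * a⁻¹, hQy h1⟩ : MulAction.stabilizer A x.1) ∈ (a • Q : Sylow q A).subtype hQy :=
          mem_subgroupOf.2 h1
        have h3 : s * ⟨a * z * a⁻¹, hQy h1⟩ * s⁻¹ ∈ s • (a • Q : Sylow q A).subtype hQy := by
          rw [H532.Thr.mem_smul_sylow]
          have e : s⁻¹ * (s * ⟨a * z * a⁻¹, hQy h1⟩ * s⁻¹) * s = ⟨a * z * a⁻¹, hQy h1⟩ := by group
          rw [e]; exact h2
        rw [hs] at h3
        have h4 : (s : A) * (a * z * a⁻¹) * (s : A)⁻¹ ∈ Q := mem_subgroupOf.1 h3
        have e : (s : A) * a * z * ((s : A) * a)⁻¹ = (s : A) * (a * z * a⁻¹) * (s : A)⁻¹ := by group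
        rw [e]; exact h4
      rw [mem_normalizer_iff]
      intro z
      refine ⟨key z, fun hz => ?_⟩
      -- finite order
      have h1 : (Q : Subgroup A).map (MulAut.conj ((s : A) * a)).toMonoidHom = Q := by
        apply Subgroup.eq_of_le_of_card_ge
        · rintro _ ⟨k, hk, rfl⟩
          exact key k hk
        · exact (Nat.card_congr ((Q : Subgroup A).equivMapOfInjective _ (MulAut.conj ((s : A) * a)).injective).toEquiv).le
      have h2 : (s : A) * a * z * ((s : A) * a)⁻¹ ∈ (Q : Subgroup A).map (MulAut.conj ((s : A) * a)).toMonoidHom := by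
        rw [h1]; exact hz
      obtain ⟨k, hk, he⟩ := h2
      have he' : (s : A) * a * k * ((s : A) * a)⁻¹ = (s : A) * a * z * ((s : A) * a)⁻¹ := he
      have : k = z := mul_left_cancel (mul_right_cancel he')
      rw [← this]; exact hk
    refine Quotient.sound' ⟨⟨(s : A) * a, hn⟩, Subtype.ext ?_⟩
    show ((s : A) * a) • y.1 = x.1
    rw [mul_smul, ha']
    exact s.2
  have himg : (∀ x : X, ¬ q ∣ (MulAction.stabilizer A x).index) ↔ Function.Surjective j := by
    constructor
    · intro h z
      induction z using Quotient.inductionOn' with | _ x =>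
      obtain ⟨Q', hQ'⟩ := exists_sylow_of_index (h x)
      obtain ⟨a, rfl⟩ := MulAction.exists_smul_eq A Q' Q
      refine ⟨Quotient.mk'' ⟨a • x, fun y hy => ?_⟩, Quotient.sound' ⟨a, rfl⟩⟩
      have h1 := hQ' (H532.Thr.mem_smul_sylow.1 hy)
      have h2 : (a⁻¹ * y * a) • x = x := h1
      calc y • a • x = a • ((a⁻¹ * y * a) • x) := by rw [smul_smul, smul_smul]; congr 1; group
        _ = a • x := by rw [h2]
    · intro h x
      obtain ⟨z, hz⟩ := h (Quotient.mk'' x)
      induction z using Quotient.inductionOn' with | _ y =>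
      obtain ⟨a, ha⟩ := Quotient.exact' hz
      have ha' : a • x = y.1 := ha
      have h1 : ((a⁻¹ • Q : Sylow q A) : Subgroup A) ≤ MulAction.stabilizer A x := by
        intro z hz
        have hz' := H532.Thr.mem_smul_sylow.1 hz
        have h2 := y.2 _ hz'
        rw [← ha'] at h2
        show z • x = x
        calc z • x = a⁻¹ • ((a⁻¹⁻¹ * z * a⁻¹) • a • x) := by
              rw [smul_smul, smul_smul]; congr 1; group
          _ = a⁻¹ • a • x := by rw [h2]
          _ = x := inv_smul_smul a x
      intro h3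
      exact (a⁻¹ • Q : Sylow q A).not_dvd_index (h3.trans (Subgroup.index_dvd_of_le h1))
  rw [himg]
  haveI : Finite (MulAction.orbitRel.Quotient A X) := inferInstance
  constructor
  · intro h
    exact Nat.card_congr (Equiv.ofBijective j ⟨hinj, h⟩)
  · intro h
    exact ((Nat.bijective_iff_injective_and_card j).2 ⟨hinj, h⟩).2

end Sylow

section Dual

variable {A : Type*} [Group A] [Finite A] {F : Type*} [Field F] [Finite F] {X : Type*} [AddCommGroup X] [Module F X]
  [Finite X]

/-- the action of a linear representation -/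
@[reducible] def act (ρ : A →* (X ≃ₗ[F] X)) : MulAction A X where
  smul a x := ρ a x
  one_smul x := by show ρ 1 x = x; rw [map_one]; rfl
  mul_smul a b x := by show ρ (a * b) x = ρ a (ρ b x); rw [map_mul]; rfl

/-- the dual action -/
@[reducible] def dact (ρ : A →* (X ≃ₗ[F] X)) : MulAction A (Dual F X) where
  smul a f := f.comp (ρ a⁻¹ : X ≃ₗ[F] X).toLinearMap
  one_smul f := by
    apply LinearMap.ext
    intro x
    show f (ρ 1⁻¹ x) = f x
    rw [inv_one, map_one]; rfl
  mul_smul a b f := by
    apply LinearMap.ext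
    intro x
    show f (ρ (a * b)⁻¹ x) = f (ρ b⁻¹ (ρ a⁻¹ x))
    rw [mul_inv_rev, map_mul]; rfl

theorem finite_dual : Finite (Dual F X) := DFunLike.finite _

/-- as many orbits on the dual -/
theorem card_orbits_dual (ρ : A →* (X ≃ₗ[F] X)) :
    Nat.card (@MulAction.orbitRel.Quotient A (Dual F X) _ (dact ρ)) =
      Nat.card (@MulAction.orbitRel.Quotient A X _ (act ρ)) := by
  letI := act ρ
  letI := dact ρ
  haveI : Finite (Dual F X) := finite_dual
  haveI : FiniteDimensional F X := Module.Finite.of_finite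
  apply card_orbits_eq
  intro a
  let T : X →ₗ[F] X := (ρ a⁻¹ : X ≃ₗ[F] X).toLinearMap - LinearMap.id
  have h1 : Nat.card {f : Dual F X // a • f = f} = Nat.card (LinearMap.range T).dualAnnihilator := by
    refine Nat.card_congr (Equiv.subtypeEquivRight fun f => ?_)
    rw [Submodule.mem_dualAnnihilator]
    constructor
    · rintro h _ ⟨x, rfl⟩
      have h2 := LinearMap.congr_fun h x
      have h3 : f (ρ a⁻¹ x) = f x := h2
      show f (ρ a⁻¹ x - x) = 0
      rw [map_sub, h3, sub_self]
    · intro h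
      apply LinearMap.ext
      intro x
      have h2 := h (T x) ⟨x, rfl⟩
      have h3 : f (ρ a⁻¹ x - x) = 0 := h2
      rw [map_sub, sub_eq_zero] at h3
      exact h3
  have h2 : Nat.card {x : X // a • x = x} = Nat.card (LinearMap.ker T) := by
    refine Nat.card_congr (Equiv.subtypeEquivRight fun x => ?_)
    rw [LinearMap.mem_ker]
    have e : T x = ρ a⁻¹ x - x := rfl
    rw [e, sub_eq_zero]
    have h3 : a • x = ρ a x := rfl
    rw [h3]
    constructor
    · intro h
      calc ρ a⁻¹ x = ρ a⁻¹ (ρ a x) := by rw [h]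
        _ = ρ (a⁻¹ * a) x := by rw [map_mul]; rfl
        _ = x := by rw [inv_mul_cancel, map_one]; rfl
    · intro h
      calc ρ a x = ρ a (ρ a⁻¹ x) := by rw [h]
        _ = ρ (a * a⁻¹) x := by rw [map_mul]; rfl
        _ = x := by rw [mul_inv_cancel, map_one]; rfl
  rw [h1, h2, Module.natCard_eq_pow_finrank (K := F) (V := ↥(LinearMap.range T).dualAnnihilator),
    Module.natCard_eq_pow_finrank (K := F) (V := ↥(LinearMap.ker T))]
  congr 1
  have h3 := Subspace.finrank_add_finrank_dualAnnihilator_eq (LinearMap.range T)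
  have h4 := LinearMap.finrank_range_add_finrank_ker T
  omega

/-- orbits of size prime to `q` on the dual -/
theorem dual_main (ρ : A →* (X ≃ₗ[F] X)) {q : ℕ} (hq : q.Prime) (hqF : ((q : ℕ) : F) ≠ 0)
    (h : ∀ x : X, ¬ q ∣ (@MulAction.stabilizer A X _ (act ρ) x).index) (f : Dual F X) :
    ¬ q ∣ (@MulAction.stabilizer A (Dual F X) _ (dact ρ) f).index := by
  classical
  letI i1 := act ρ
  letI i2 := dact ρ
  haveI : Fact q.Prime := ⟨hq⟩
  haveI : Finite (Dual F X) := finite_dual
  haveI : FiniteDimensional F X := Module.Finite.of_finite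
  let Q : Sylow q A := default
  have hsm : ∀ (a : A) (x : X), a • x = ρ a x := fun _ _ => rfl
  have hsd : ∀ (a : A) (f : Dual F X) (x : X), (a • f) x = f (ρ a⁻¹ x) := fun _ _ _ => rfl
  have h1 := (stab_iff (X := X) Q).1 h
  refine (stab_iff (X := Dual F X) Q).2 ?_ f
  rw [card_orbits_dual ρ, ← h1]
  -- the fixed points as a submodule
  let N := normalizer ((Q : Subgroup A) : Set A)
  let Y : Submodule F X :=
    { carrier := {x | ∀ y ∈ Q, ρ y x = x}
      add_mem' := fun {x x'} hx hx' y hy => by rw [map_add, hx y hy, hx' y hy]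
      zero_mem' := fun y _ => map_zero _
      smul_mem' := fun c x hx y hy => by rw [map_smul, hx y hy] }
  have hYN : ∀ (n : N) (x : X), x ∈ Y → ρ (n : A) x ∈ Y := by
    intro n x hx y hy
    exact (n • (⟨x, hx⟩ : FixQ X Q)).2 y hy
  let e : N → (Y ≃ₗ[F] Y) := fun n => LinearEquiv.ofLinearMap
    (((ρ (n : A) : X ≃ₗ[F] X).toLinearMap).restrict (hYN n)) (((ρ ((n⁻¹ : N) : A) : X ≃ₗ[F] X).toLinearMap).restrict (hYN n⁻¹))
    (by
      apply LinearMap.ext
      intro x
      apply Subtype.ext
      show ρ (n : A) (ρ ((n⁻¹ : N) : A) x) = x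
      have : ρ (n : A) (ρ ((n⁻¹ : N) : A) x) = ρ ((n : A) * ((n⁻¹ : N) : A)) (x : X) := by rw [map_mul]; rfl
      rw [this, Subgroup.coe_inv, mul_inv_cancel, map_one]; rfl)
    (by
      apply LinearMap.ext
      intro x
      apply Subtype.ext
      show ρ ((n⁻¹ : N) : A) (ρ (n : A) x) = x
      have : ρ ((n⁻¹ : N) : A) (ρ (n : A) x) = ρ (((n⁻¹ : N) : A) * (n : A)) (x : X) := by rw [map_mul]; rfl
      rw [this, Subgroup.coe_inv, inv_mul_cancel, map_one]; rfl)
  have he : ∀ (n : N) (x : Y), ((e n x : Y) : X) = ρ (n : A) x := fun _ _ => rfl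
  let σ : N →* (Y ≃ₗ[F] Y) := MonoidHom.mk' e (by
    intro n m
    apply LinearEquiv.ext
    intro x
    apply Subtype.ext
    rw [LinearEquiv.mul_apply, he, he, he, Subgroup.coe_mul, map_mul]
    rfl)
  have hσ : ∀ (n : N) (x : Y), ((σ n x : Y) : X) = ρ (n : A) x := fun _ _ => rfl
  have h2 := card_orbits_dual σ
  letI i3 := act σ
  letI i4 := dact σ
  have hsd' : ∀ (n : N) (f : Dual F Y) (x : Y), (n • f) x = f (σ n⁻¹ x) := fun _ _ _ => rfl
  have h3 : Nat.card (MulAction.orbitRel.Quotient N Y) = Nat.card (MulAction.orbitRel.Quotient N (FixQ X Q)) :=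
    card_orbits_equiv (A := N) (X := Y) (Y := FixQ X Q) (Equiv.refl _) (fun n x => rfl)
  rw [← h3, ← h2]
  -- the averaging projection
  haveI : Fintype Q := Fintype.ofFinite _
  have hc : ((Fintype.card Q : ℕ) : F) ≠ 0 := by
    obtain ⟨k, hk⟩ := IsPGroup.iff_card.1 Q.isPGroup'
    have hk' : Fintype.card Q = q ^ k := by
      rw [← Nat.card_eq_fintype_card]; exact hk
    rw [hk']
    push_cast
    exact pow_ne_zero _ hqF
  let av : X →ₗ[F] X := ((Fintype.card Q : ℕ) : F)⁻¹ • ∑ y : Q, (ρ (y : A) : X ≃ₗ[F] X).toLinearMap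
  have hav : ∀ x, av x = ((Fintype.card Q : ℕ) : F)⁻¹ • ∑ y : Q, ρ (y : A) x := by
    intro x
    show (((Fintype.card Q : ℕ) : F)⁻¹ • ∑ y : Q, (ρ (y : A) : X ≃ₗ[F] X).toLinearMap) x = _
    rw [LinearMap.smul_apply, LinearMap.sum_apply]
    rfl
  have hmulsum : ∀ (z : Q) (x : X), ∑ y : Q, ρ ((z : A) * (y : A)) x = ∑ y : Q, ρ (y : A) x := by
    intro z x
    exact Fintype.sum_equiv (Equiv.mulLeft z) _ _ (fun y => rfl)
  have hmulsum' : ∀ (z : Q) (x : X), ∑ y : Q, ρ ((y : A) * (z : A)) x = ∑ y : Q, ρ (y : A) x := by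
    intro z x
    exact Fintype.sum_equiv (Equiv.mulRight z) _ _ (fun y => rfl)
  have havY : ∀ x, av x ∈ Y := by
    intro x z hz
    rw [hav, map_smul, map_sum]
    congr 1
    rw [← hmulsum ⟨z, hz⟩ x]
    apply Finset.sum_congr rfl
    intro y _
    rw [map_mul]
    rfl
  have havid : ∀ x : X, x ∈ Y → av x = x := by
    intro x hx
    have h4 : ∑ y : Q, ρ (y : A) x = ∑ _y : Q, x := Finset.sum_congr rfl (fun y _ => hx y y.2)
    rw [hav, h4, Finset.sum_const, Finset.card_univ, ← Nat.cast_smul_eq_nsmul F, smul_smul, inv_mul_cancel₀ hc,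
      one_smul]
  let avY : X →ₗ[F] Y := av.codRestrict Y havY
  have hfix : ∀ (f : FixQ (Dual F X) Q) (y : A), y ∈ Q → ∀ x, f.1 (ρ y x) = f.1 x := by
    intro f y hy x
    have h4 := LinearMap.congr_fun (f.2 y⁻¹ (inv_mem hy)) x
    rw [hsd, inv_inv] at h4
    exact h4
  refine card_orbits_equiv (A := N) (X := FixQ (Dual F X) Q) (Y := Dual F Y)
    { toFun := fun f => f.1.comp Y.subtype
      invFun := fun g => ⟨g.comp avY, fun y hy => ?_⟩
      left_inv := fun f => ?_
      right_inv := fun g => ?_ } ?_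
  · apply LinearMap.ext
    intro x
    rw [hsd]
    show g (avY (ρ y⁻¹ x)) = g (avY x)
    congr 1
    apply Subtype.ext
    show av (ρ y⁻¹ x) = av x
    rw [hav, hav]
    congr 1
    rw [← hmulsum' ⟨y⁻¹, inv_mem hy⟩ x]
    apply Finset.sum_congr rfl
    intro z _
    rw [map_mul]
    rfl
  · apply Subtype.ext
    apply LinearMap.ext
    intro x
    show f.1 (av x) = f.1 x
    have h4 : ∑ y : Q, f.1 (ρ (y : A) x) = ∑ _y : Q, f.1 x := Finset.sum_congr rfl (fun y _ => hfix f y y.2 x)
    rw [hav, map_smul, map_sum, h4, Finset.sum_const, Finset.card_univ, ← Nat.cast_smul_eq_nsmul F, smul_smul,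
      inv_mul_cancel₀ hc, one_smul]
  · apply LinearMap.ext
    intro x
    show g (avY x) = g x
    congr 1
    exact Subtype.ext (havid x x.2)
  · intro n f
    apply LinearMap.ext
    intro x
    rw [hsd']
    rfl

end Dual

end Cfsg.Agent.H529.DualOrb
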