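import Cfsg.Agent.H529.DualOrb
import Cfsg.Agent.H529.CsLin
import Cfsg.Agent.H506.SCDef

/-!
# The DUAL step of S4307 (helper529)

`K = U : C`, `U` an elementary abelian `r`-group, `q ≠ r`; every `u g` (`u ∈ U`, `g ∈ C`) with `u ∉ [U, g]` is
centralised by a Sylow `q`-subgroup of `K`. Then every nontrivial linear character of `U` is fixed by a Sylow
`q`-subgroup of `C` which is central in its stabiliser: `SC q` for the action of `C` on the dual of `U`.
-/

set_option autoImplicit false
set_option linter.unusedSectionVars false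
set_option linter.style.haveILetI false

namespace Cfsg.Agent.H529.DualSC

open Subgroup Cfsg.Agent.H532.Thr Module Cfsg.Agent.H529.DualOrb

/-- the linear form of the dual step -/
theorem sc_main {C : Type*} [Group C] [Finite C] {r : ℕ} [Fact r.Prime] {W : Type*} [AddCommGroup W]
    [Module (ZMod r) W] [Finite W] (φ : C →* (W ≃ₗ[ZMod r] W)) {q : ℕ} (hq : q.Prime) (hqr : q ≠ r)
    (h : ∀ (g : C) (w : W), (∀ v, w ≠ φ g v - v) →
      ∃ S : Subgroup C, (∀ a ∈ S, a * g = g * a ∧ ∃ v, φ a w = w + (φ g v - v)) ∧ ¬ q ∣ S.index)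
    (f : Dual (ZMod r) W) (hf : f ≠ 0) :
    ∃ Q : Sylow q C, (∀ x ∈ Q, ∀ w, f (φ x w) = f w) ∧
      ∀ g : C, (∀ w, f (φ g w) = f w) → ∀ x ∈ Q, g * x = x * g := by
  haveI : Fact q.Prime := ⟨hq⟩
  let St : Subgroup C :=
    { carrier := {g | ∀ w, f (φ g w) = f w}
      mul_mem' := fun {a b} ha hb w => by
        rw [map_mul]
        show f (φ a (φ b w)) = f w
        rw [ha, hb]
      one_mem' := fun w => by rw [map_one]; rfl
      inv_mem' := fun {a} ha w => by
        rw [← ha (φ a⁻¹ w)]
        show f (φ a (φ a⁻¹ w)) = f w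
        have : φ a (φ a⁻¹ w) = φ (a * a⁻¹) w := by rw [map_mul]; rfl
        rw [this, mul_inv_cancel, map_one]; rfl }
  have hSt : ∀ g, g ∈ St ↔ ∀ w, f (φ g w) = f w := fun g => Iff.rfl
  have hqF : ((q : ℕ) : ZMod r) ≠ 0 := by
    intro h0
    rw [ZMod.natCast_eq_zero_iff] at h0
    exact hqr ((Nat.prime_dvd_prime_iff_eq (Fact.out : r.Prime) hq).1 h0).symm
  -- the key index
  have key : ∀ g ∈ St, ¬ q ∣ (St ⊓ centralizer {g}).index := by
    intro g hg
    let A := centralizer ({g} : Set C)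
    let T : W →ₗ[ZMod r] W := (φ g : W ≃ₗ[ZMod r] W).toLinearMap - LinearMap.id
    let R : Submodule (ZMod r) W := LinearMap.range T
    have hT : ∀ v, T v = φ g v - v := fun _ => rfl
    have hfR : R ≤ LinearMap.ker f := by
      rintro _ ⟨v, rfl⟩
      rw [LinearMap.mem_ker, hT, map_sub, hg v, sub_self]
    have hAR : ∀ a : A, R ≤ R.comap (φ (a : C) : W ≃ₗ[ZMod r] W).toLinearMap := by
      rintro a _ ⟨v, rfl⟩
      refine ⟨φ (a : C) v, ?_⟩
      show φ g (φ (a : C) v) - φ (a : C) v = φ (a : C) (φ g v - v)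
      have h1 : (a : C) * g = g * a := mem_centralizer_singleton_iff.1 a.2
      have h2 : φ g (φ (a : C) v) = φ (g * a) v := by rw [map_mul]; rfl
      have h3 : φ (a : C) (φ g v) = φ (a * g) v := by rw [map_mul]; rfl
      rw [map_sub, h2, h3, h1]
    let e : A → ((W ⧸ R) ≃ₗ[ZMod r] (W ⧸ R)) := fun a =>
      LinearEquiv.ofLinearMap (R.mapQ R _ (hAR a)) (R.mapQ R _ (hAR a⁻¹))
        (by
          apply LinearMap.ext
          intro x
          obtain ⟨w, rfl⟩ := R.mkQ_surjective x
          show R.mkQ (φ (a : C) (φ ((a⁻¹ : A) : C) w)) = R.mkQ w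
          have : φ (a : C) (φ ((a⁻¹ : A) : C) w) = φ ((a : C) * ((a⁻¹ : A) : C)) w := by rw [map_mul]; rfl
          rw [this, Subgroup.coe_inv, mul_inv_cancel, map_one]; rfl)
        (by
          apply LinearMap.ext
          intro x
          obtain ⟨w, rfl⟩ := R.mkQ_surjective x
          show R.mkQ (φ ((a⁻¹ : A) : C) (φ (a : C) w)) = R.mkQ w
          have : φ ((a⁻¹ : A) : C) (φ (a : C) w) = φ (((a⁻¹ : A) : C) * (a : C)) w := by rw [map_mul]; rfl
          rw [this, Subgroup.coe_inv, inv_mul_cancel, map_one]; rfl)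
    have he : ∀ (a : A) (w : W), e a (R.mkQ w) = R.mkQ (φ (a : C) w) := fun _ _ => rfl
    let σ : A →* ((W ⧸ R) ≃ₗ[ZMod r] (W ⧸ R)) := MonoidHom.mk' e (by
      intro a b
      apply LinearEquiv.ext
      intro x
      obtain ⟨w, rfl⟩ := R.mkQ_surjective x
      rw [LinearEquiv.mul_apply, he, he, he, Subgroup.coe_mul, map_mul]
      rfl)
    have hσ : ∀ (a : A) (w : W), σ a (R.mkQ w) = R.mkQ (φ (a : C) w) := fun _ _ => rfl
    haveI : Finite (W ⧸ R) := Finite.of_surjective _ R.mkQ_surjective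
    have hstab : ∀ w : W, (∀ v, w ≠ φ g v - v) →
        ¬ q ∣ (@MulAction.stabilizer A (W ⧸ R) _ (act σ) (R.mkQ w)).index ∧ ¬ q ∣ A.index := by
      intro w hw
      letI := act σ
      obtain ⟨S, hS, hSq⟩ := h g w hw
      have h1 : S ≤ (MulAction.stabilizer A (R.mkQ w)).map A.subtype := by
        intro a ha
        obtain ⟨h2, v, hv⟩ := hS a ha
        refine ⟨⟨a, mem_centralizer_singleton_iff.2 h2⟩, ?_, rfl⟩
        show R.mkQ (φ a w) = R.mkQ w
        rw [hv, map_add]
        have : R.mkQ (φ g v - v) = 0 := by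
          rw [Submodule.mkQ_apply, Submodule.Quotient.mk_eq_zero]
          exact ⟨v, rfl⟩
        rw [this, add_zero]
      have h2 := index_dvd_of_le h1
      rw [index_map_subtype] at h2
      exact ⟨fun h3 => hSq ((h3.mul_right _).trans h2), fun h3 => hSq ((h3.mul_left _).trans h2)⟩
    have hall : ∀ x : W ⧸ R, ¬ q ∣ (@MulAction.stabilizer A (W ⧸ R) _ (act σ) x).index := by
      intro x
      obtain ⟨w, rfl⟩ := R.mkQ_surjective x
      by_cases hw : ∀ v, w ≠ φ g v - v
      · exact (hstab w hw).1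
      · push Not at hw
        obtain ⟨v, hv⟩ := hw
        letI := act σ
        have h1 : R.mkQ w = 0 := by
          rw [Submodule.mkQ_apply, Submodule.Quotient.mk_eq_zero, hv]
          exact ⟨v, rfl⟩
        have h2 : MulAction.stabilizer A (R.mkQ w) = ⊤ := by
          rw [eq_top_iff]
          intro a _
          show σ a (R.mkQ w) = R.mkQ w
          rw [h1, map_zero]
        rw [h2, index_top]
        intro h3
        exact hq.one_lt.ne' (Nat.dvd_one.1 h3)
    have hd := dual_main σ hq hqF hall (R.liftQ f hfR)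
    letI := dact σ
    have hst : MulAction.stabilizer A (R.liftQ f hfR) = St.subgroupOf A := by
      ext a
      rw [mem_subgroupOf, MulAction.mem_stabilizer_iff]
      constructor
      · intro h1
        have h2 : (a : C)⁻¹ ∈ St := by
          intro w
          exact LinearMap.congr_fun h1 (R.mkQ w)
        have h3 := inv_mem h2
        rwa [inv_inv] at h3
      · intro h1
        apply LinearMap.ext
        intro x
        obtain ⟨w, rfl⟩ := R.mkQ_surjective x
        exact (inv_mem h1) w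
    rw [hst] at hd
    have hA : ¬ q ∣ A.index := by
      have h1 : ∃ w, w ∉ R := by
        by_contra hcon
        push Not at hcon
        apply hf
        apply LinearMap.ext
        intro w
        exact hfR (hcon w)
      obtain ⟨w, hw⟩ := h1
      refine (hstab w ?_).2
      intro v hv
      exact hw ⟨v, hv.symm⟩
    have h4 : (St ⊓ A).index = (St.subgroupOf A).index * A.index := by
      rw [← index_map_subtype, subgroupOf_map_subtype]
    rw [h4]
    intro h5
    rcases (Nat.Prime.dvd_mul hq).1 h5 with h6 | h6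
    · exact hd h6
    · exact hA h6
  -- the stabiliser contains a Sylow subgroup
  have hStI : ¬ q ∣ St.index := by
    intro h1
    exact key 1 (one_mem _) (h1.trans (index_dvd_of_le inf_le_left))
  obtain ⟨Q, hQ⟩ := exists_sylow_of_index hStI
  refine ⟨Q, fun x hx => hQ hx, fun g hg x hx => ?_⟩
  have hrf : ∀ n : St, RF q n := by
    intro n h1
    apply key n n.2
    have h2 : centralizer ({n} : Set St) = (centralizer ({(n : C)} : Set C)).subgroupOf St := by
      ext z
      rw [mem_subgroupOf, mem_centralizer_singleton_iff, mem_centralizer_singleton_iff, Subtype.ext_iff]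
      rfl
    rw [h2] at h1
    have h3 : (St ⊓ centralizer ({(n : C)} : Set C)).index =
        ((centralizer ({(n : C)} : Set C)).subgroupOf St).index * St.index := by
      rw [← index_map_subtype, subgroupOf_map_subtype, inf_comm]
    rw [h3]
    exact h1.mul_right _
  have h1 := central_of_rf hrf (Q.subtype hQ) (y := ⟨x, hQ hx⟩) (mem_subgroupOf.2 hx) ⟨g, hg⟩
  exact (congrArg Subtype.val h1).symm

/-- the action on the dual -/
def dualHom {C : Type*} [Group C] {F : Type*} [Field F] {W : Type*} [AddCommGroup W] [Module F W]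
    (φ : C →* (W ≃ₗ[F] W)) : C →* MulAut (Multiplicative (Dual F W)) where
  toFun g :=
    { toFun := fun f => Multiplicative.ofAdd ((f.toAdd : Dual F W).comp (φ g⁻¹ : W ≃ₗ[F] W).toLinearMap)
      invFun := fun f => Multiplicative.ofAdd ((f.toAdd : Dual F W).comp (φ g : W ≃ₗ[F] W).toLinearMap)
      left_inv := fun f => by
        apply Multiplicative.toAdd.injective
        apply LinearMap.ext
        intro w
        show (f.toAdd : Dual F W) (φ g⁻¹ (φ g w)) = _
        have : φ g⁻¹ (φ g w) = φ (g⁻¹ * g) w := by rw [map_mul]; rfl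
        rw [this, inv_mul_cancel, map_one]; rfl
      right_inv := fun f => by
        apply Multiplicative.toAdd.injective
        apply LinearMap.ext
        intro w
        show (f.toAdd : Dual F W) (φ g (φ g⁻¹ w)) = _
        have : φ g (φ g⁻¹ w) = φ (g * g⁻¹) w := by rw [map_mul]; rfl
        rw [this, mul_inv_cancel, map_one]; rfl
      map_mul' := fun f f' => rfl }
  map_one' := by
    apply MulEquiv.ext
    intro f
    apply Multiplicative.toAdd.injective
    apply LinearMap.ext
    intro w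
    show (f.toAdd : Dual F W) (φ 1⁻¹ w) = _
    rw [inv_one, map_one]; rfl
  map_mul' g g' := by
    apply MulEquiv.ext
    intro f
    apply Multiplicative.toAdd.injective
    apply LinearMap.ext
    intro w
    show (f.toAdd : Dual F W) (φ (g * g')⁻¹ w) = (f.toAdd : Dual F W) (φ g'⁻¹ (φ g⁻¹ w))
    rw [mul_inv_rev, map_mul]; rfl

theorem dualHom_apply {C : Type*} [Group C] {F : Type*} [Field F] {W : Type*} [AddCommGroup W] [Module F W]
    (φ : C →* (W ≃ₗ[F] W)) (g : C) (f : Dual F W) (w : W) :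
    ((dualHom φ g (Multiplicative.ofAdd f)).toAdd : Dual F W) w = f (φ g⁻¹ w) := rfl

/-- `SC q` for the dual -/
theorem sc_dual {C : Type*} [Group C] [Finite C] {r : ℕ} [Fact r.Prime] {W : Type*} [AddCommGroup W]
    [Module (ZMod r) W] [Finite W] (φ : C →* (W ≃ₗ[ZMod r] W)) {q : ℕ} (hq : q.Prime) (hqr : q ≠ r)
    (h : ∀ (g : C) (w : W), (∀ v, w ≠ φ g v - v) →
      ∃ S : Subgroup C, (∀ a ∈ S, a * g = g * a ∧ ∃ v, φ a w = w + (φ g v - v)) ∧ ¬ q ∣ S.index) :
    Cfsg.Agent.H506.SC.SC q (dualHom φ) := by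
  intro f hf
  obtain ⟨Q, h1, h2⟩ := sc_main φ hq hqr h (f.toAdd : Dual (ZMod r) W) hf
  refine ⟨Q, fun x hx => ?_, fun g hg x hx => h2 g (fun w => ?_) x hx⟩
  · apply Multiplicative.toAdd.injective
    apply LinearMap.ext
    intro w
    exact h1 x⁻¹ (inv_mem hx) w
  · have h3 := LinearMap.congr_fun (congrArg Multiplicative.toAdd hg) (φ g w)
    have h4 : (f.toAdd : Dual (ZMod r) W) (φ g⁻¹ (φ g w)) = (f.toAdd : Dual (ZMod r) W) (φ g w) := h3
    have h5 : φ g⁻¹ (φ g w) = φ (g⁻¹ * g) w := by rw [map_mul]; rfl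
    rw [h5, inv_mul_cancel, map_one] at h4
    exact h4.symm

universe u

/-- **the DUAL step**, internal form: everything needed to apply Theorem N. -/
theorem dual_step {K : Type u} [Group K] [Finite K] (U C : Subgroup K) [hUn : U.Normal] (hUC : U ⊓ C = ⊥)
    (hUC' : U ⊔ C = ⊤) (hab : ∀ x ∈ U, ∀ y ∈ U, x * y = y * x) {r : ℕ} (hr : r.Prime) (hU : ∀ u ∈ U, u ^ r = 1)
    (hU1 : U ≠ ⊥) {q : ℕ} (hq : q.Prime) (hqr : q ≠ r)
    (h : ∀ u ∈ U, ∀ g ∈ C, (∀ v ∈ U, u ≠ g * v * g⁻¹ * v⁻¹) → RF q (u * g)) :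
    ∃ (W : Type u) (_ : CommGroup W) (_ : Finite W) (ψ : ↥C →* MulAut W), (∀ w : W, w ^ r = 1) ∧ (∃ w : W, w ≠ 1) ∧
      Cfsg.Agent.H506.SC.SC q ψ := by
  haveI : Fact r.Prime := ⟨hr⟩
  obtain ⟨W, _, _, _, i, ρ, hi, hiU, hadd, hρ⟩ := Cfsg.Agent.H529.CsLin.exists_rep U hab hU
  have hzero : i 0 = 1 := by
    have h1 := hadd 0 0
    rw [add_zero] at h1
    exact (left_eq_mul.1 h1)
  have hneg : ∀ w, i (-w) = (i w)⁻¹ := by
    intro w
    have h1 := hadd (-w) w
    rw [neg_add_cancel, hzero] at h1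
    exact eq_inv_of_mul_eq_one_left h1.symm
  have hsub : ∀ w w', i (w - w') = i w * (i w')⁻¹ := fun w w' => by rw [sub_eq_add_neg, hadd, hneg]
  have hmem : ∀ w, i w ∈ U := fun w => (hiU _).2 ⟨w, rfl⟩
  let φ : ↥C →* (W ≃ₗ[ZMod r] W) := ρ.comp C.subtype
  have hφ : ∀ (a : C) (w : W), i (φ a w) = a * i w * (a : K)⁻¹ := fun a w => hρ a w
  haveI : Finite (Multiplicative (Dual (ZMod r) W)) := by
    haveI : Finite (Dual (ZMod r) W) := finite_dual
    exact inferInstanceAs (Finite (Dual (ZMod r) W))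
  -- projection to the complement
  let π : ↥C →* K ⧸ U := (QuotientGroup.mk' U).comp C.subtype
  have hπ : Function.Bijective π := by
    constructor
    · intro a b hab'
      have h1 : (a : K)⁻¹ * b ∈ U := QuotientGroup.eq.1 hab'
      have h2 : (a : K)⁻¹ * b ∈ U ⊓ C := mem_inf.2 ⟨h1, mul_mem (inv_mem a.2) b.2⟩
      rw [hUC, mem_bot, inv_mul_eq_one] at h2
      exact Subtype.ext h2
    · intro x
      obtain ⟨k, rfl⟩ := QuotientGroup.mk_surjective x
      have h1 : k ∈ U ⊔ C := by rw [hUC']; trivial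
      obtain ⟨u, hu, c, hc, rfl⟩ := mem_sup_of_normal_left.1 h1
      refine ⟨⟨c, hc⟩, ?_⟩
      show ((c : K) : K ⧸ U) = ((u * c : K) : K ⧸ U)
      rw [QuotientGroup.eq]
      have e : c⁻¹ * (u * c) = c⁻¹ * u * c⁻¹⁻¹ := by group
      rw [e]
      exact hUn.conj_mem _ hu _
  let e : ↥C ≃* K ⧸ U := MulEquiv.ofBijective π hπ
  have hSC := sc_dual φ hq hqr (by
    intro g w hw
    have h1 : RF q (i w * (g : K)) := by
      apply h _ (hmem w) _ g.2
      intro v hv heq
      obtain ⟨v', rfl⟩ := (hiU v).1 hv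
      apply hw v'
      apply hi
      rw [hsub, hφ]
      exact heq
    refine ⟨((centralizer ({i w * (g : K)} : Set K)).map (QuotientGroup.mk' U)).comap e.toMonoidHom, ?_, ?_⟩
    · intro a ha
      obtain ⟨k, hk, hka⟩ := mem_comap.1 ha
      have hka' : ((k : K) : K ⧸ U) = ((a : K) : K ⧸ U) := hka
      rw [SetLike.mem_coe, mem_centralizer_singleton_iff] at hk
      -- `k = v a`
      have hv : k * (a : K)⁻¹ ∈ U := by
        have h2 := QuotientGroup.eq.1 hka'.symm
        have e1 : k * (a : K)⁻¹ = (a : K) * ((a : K)⁻¹ * k) * (a : K)⁻¹ := by group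
        rw [e1]
        exact hUn.conj_mem _ h2 _
      obtain ⟨v, hv'⟩ := (hiU _).1 hv
      have hkv : k = i v * a := by rw [hv']; group
      rw [hkv] at hk
      -- v a w g = w g v a
      have hdec : i v * i (φ a w) * ((a : K) * g) = i w * i (φ g v) * ((g : K) * a) := by
        rw [hφ, hφ]
        calc i v * ((a : K) * i w * (a : K)⁻¹) * ((a : K) * g) = i v * a * (i w * g) := by group
          _ = i w * g * (i v * a) := hk
          _ = i w * ((g : K) * i v * (g : K)⁻¹) * ((g : K) * a) := by group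
      have hu1 : i v * i (φ a w) ∈ U := mul_mem (hmem _) (hmem _)
      have hu2 : i w * i (φ g v) ∈ U := mul_mem (hmem _) (hmem _)
      have h3 : (i w * i (φ g v))⁻¹ * (i v * i (φ a w)) = (g : K) * a * ((a : K) * g)⁻¹ := by
        rw [inv_mul_eq_iff_eq_mul, ← mul_assoc, ← hdec, mul_inv_cancel_right]
      have h4 : (g : K) * a * ((a : K) * g)⁻¹ ∈ U ⊓ C :=
        mem_inf.2 ⟨by rw [← h3]; exact mul_mem (inv_mem hu2) hu1,
          mul_mem (mul_mem g.2 a.2) (inv_mem (mul_mem a.2 g.2))⟩
      rw [hUC, mem_bot] at h4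
      refine ⟨Subtype.ext (mul_inv_eq_one.1 h4).symm, v, ?_⟩
      rw [h4, inv_mul_eq_one] at h3
      -- i w * i (φ g v) = i v * i (φ a w)
      apply hi
      rw [hadd, hsub]
      have h5 : i v * i (φ a w) = i (φ a w) * i v := hab _ (hmem _) _ (hmem _)
      rw [h5] at h3
      rw [← mul_assoc, h3, mul_inv_cancel_right]
    · intro h2
      apply h1
      have h3 : (((centralizer ({i w * (g : K)} : Set K)).map (QuotientGroup.mk' U)).comap e.toMonoidHom).index =
          ((centralizer ({i w * (g : K)} : Set K)).map (QuotientGroup.mk' U)).index :=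
        index_comap_of_surjective _ e.surjective
      rw [h3] at h2
      exact h2.trans (index_map_dvd _ (QuotientGroup.mk'_surjective U)))
  refine ⟨Multiplicative (Dual (ZMod r) W), inferInstance, inferInstance, dualHom φ, ?_, ?_, hSC⟩
  · intro f
    apply Multiplicative.toAdd.injective
    apply LinearMap.ext
    intro w
    show (r • (f.toAdd : Dual (ZMod r) W)) w = 0
    rw [LinearMap.smul_apply, ← Nat.cast_smul_eq_nsmul (ZMod r), ZMod.natCast_self, zero_smul]
  · -- nontrivial dual
    have h1 : ∃ w : W, w ≠ 0 := by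
      by_contra hcon
      push Not at hcon
      apply hU1
      rw [eq_bot_iff]
      intro u hu
      obtain ⟨w, rfl⟩ := (hiU u).1 hu
      rw [hcon w, hzero]
      exact one_mem _
    obtain ⟨w, hw⟩ := h1
    have h2 : ∃ f : Dual (ZMod r) W, f w ≠ 0 := by
      by_contra hcon
      push Not at hcon
      exact hw ((Module.forall_dual_apply_eq_zero_iff (ZMod r) w).1 hcon)
    obtain ⟨f, hf⟩ := h2
    refine ⟨Multiplicative.ofAdd f, fun h3 => hf ?_⟩
    have h4 : f = 0 := congrArg Multiplicative.toAdd h3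
    rw [h4, LinearMap.zero_apply]

end Cfsg.Agent.H529.DualSC
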