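import Cfsg.Agent.H529.NMove
import Cfsg.Agent.H531.RMTw

/-!
# `NMove` for the exceptional groups `G₂`, `F₄`, `E₆`, `E₇`, `E₈`, `³D₄`, `²E₆`

Same proofs as in `Cfsg.Agent.H531` (helper531), `Cfsg.Agent.H71` (helper71), `Cfsg.Agent.H522` (helper522), with the
criteria of `Cfsg.Agent.H529.NMv`.
-/

set_option autoImplicit false

namespace Cfsg.Agent.H529.NMvExc

open Cfsg.Agent.H531 Cfsg.Agent.H529.NMv

universe v

section Chev

open Cfsg.Lie Cfsg.Agent.H967.CopMat Cfsg.Agent.H967.CopRow Cfsg.Agent.H967.CopChev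
  Cfsg.Agent.ChevStructure.FieldMap Cfsg.Agent.ChevalleyStructure Cfsg.Agent.ChevalleyStructure.Elts
  Cfsg.Agent.H531.RMChev

theorem nMove_chev {D : ChevalleyDatum} (hD : InList D) {F : Type v} [Field F] [Finite F]
    (R : Row (D.group F)) (h2 : 2 ∣ Nat.card ↥(D.group F)) : NMove ↥(D.group F) := by
  have hr := nroots_pos hD
  refine NMove.of_sl' h2 (fieldAut R.stab) (FieldConj.of_row R) (psi hD hr F) ?_ ?_ ?_
  · intro τ t
    apply Subtype.ext
    rw [coe_fieldAut, psi_up, psi_up, map_xG]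
  · intro τ t
    apply Subtype.ext
    rw [coe_fieldAut, psi_lo, psi_lo, map_xG]
  · intro t ht
    have h1 := congrArg Subtype.val ht
    rw [psi_up] at h1
    exact (xG_eq_one_iff hD hr t).1 h1

end Chev

section Sub

open Cfsg.Agent.H967.CopMat Cfsg.Agent.H967.CopRow Cfsg.Agent.ChevalleyStructure.SL2Hom

/-- **Criterion** for twisted groups. -/
theorem NMove.of_row_fixed {ι : Type} [Fintype ι] [DecidableEq ι] {K : Type v} [Field K] [Fintype K]
    {G : Subgroup (Matrix.GeneralLinearGroup ι K)} (R : Row G) (h2 : 2 ∣ Nat.card ↥G)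
    (s : Matrix.SpecialLinearGroup (Fin 2) K →* Matrix.GeneralLinearGroup ι K) {q d : ℕ} (hq : 2 ≤ q)
    (hK : Fintype.card K = q ^ d) (φ : K →+* K) (hφ : ∀ x, φ x = x ^ q)
    (hup : ∀ t : K, φ t = t → s (up t) ∈ G) (hlo : ∀ t : K, φ t = t → s (lo t) ∈ G)
    (eup : ∀ (τ : K ≃+* K) (t : K), Matrix.GeneralLinearGroup.map (τ : K →+* K) (s (up t)) = s (up (τ t)))
    (elo : ∀ (τ : K ≃+* K) (t : K), Matrix.GeneralLinearGroup.map (τ : K →+* K) (s (lo t)) = s (lo (τ t)))
    (hinj : ∀ t : K, s (up t) = 1 → t = 0) (hfac : ∀ p : ℕ, p.Prime → p ∣ d.factorial → p ∣ Nat.card ↥G) :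
    NMove ↥G := by
  have hw : s (weylSL K) ∈ G := by
    rw [weylSL_eq, map_mul, map_mul]
    have h1 : φ (-1) = -1 := by rw [map_neg, map_one]
    exact mul_mem (mul_mem (hup 1 (map_one φ)) (hlo (-1) h1)) (hup 1 (map_one φ))
  have hmem : ∀ u ∈ fixUnits K q, s (diagSL K u) ∈ G := by
    intro u hu
    have hu1 : φ (u : K) = u := by
      rw [hφ, ← Units.val_pow_eq_pow_val]
      exact congrArg Units.val hu
    have hu2 : φ (-(u : K)⁻¹) = -(u : K)⁻¹ := by rw [map_neg, map_inv₀, hu1]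
    rw [diagSL_eq, map_mul, map_mul, map_mul, map_inv]
    exact mul_mem (mul_mem (mul_mem (hup _ hu1) (hlo _ hu2)) (hup _ hu1)) (inv_mem hw)
  let h : fixUnits K q →* ↥G :=
    { toFun := fun u => ⟨s (diagSL K u), hmem u u.2⟩
      map_one' := Subtype.ext (by
        show s (diagSL K ((1 : fixUnits K q) : Kˣ)) = 1
        rw [OneMemClass.coe_one, map_one, map_one])
      map_mul' := fun u v => Subtype.ext (by
        show s (diagSL K ((u * v : fixUnits K q) : Kˣ)) = s (diagSL K u) * s (diagSL K v)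
        rw [Subgroup.coe_mul, map_mul, map_mul]) }
  -- entrywise field automorphisms
  have hequiv : ∀ (τ : K ≃+* K) (g : Matrix.SpecialLinearGroup (Fin 2) K),
      Matrix.GeneralLinearGroup.map (τ : K →+* K) (s g) = s (Matrix.SpecialLinearGroup.map (τ : K →+* K) g) := by
    intro τ g
    have hg := mem_closure_SL2 g
    induction hg using Subgroup.closure_induction with
    | mem x hx =>
      rcases hx with ⟨t, rfl⟩ | ⟨t, rfl⟩
      · rw [eup, map_up]
      · rw [elo, map_lo]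
    | one => rw [map_one, map_one, map_one, map_one]
    | mul x y _ _ h1 h2 => rw [map_mul, map_mul, map_mul, map_mul, h1, h2]
    | inv x _ h1 => rw [map_inv, map_inv, map_inv, map_inv, h1]
  refine NMove.of_field h2 (fieldAut R.stab) (FieldConj.of_row R) (fixUnits K q) h ?_ ?_ ?_ d.factorial hfac ?_
  · intro τ u u' huu
    apply Subtype.ext
    rw [coe_fieldAut]
    show Matrix.GeneralLinearGroup.map (τ : K →+* K) (s (diagSL K u)) = s (diagSL K u')
    rw [hequiv, map_diagSL]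
    congr 2
    exact Units.ext huu.symm
  · intro u hu
    have h1 : s (diagSL K u) = 1 := congrArg Subtype.val hu
    exact Subtype.ext (sq_of_ker s hinj u h1)
  · intro u
    refine ⟨⟨s (weylSL K), hw⟩, ?_⟩
    apply Subtype.ext
    show s (weylSL K) * s (diagSL K u) * (s (weylSL K))⁻¹ = (s (diagSL K u))⁻¹
    rw [← map_inv, ← map_inv, ← map_mul, ← map_mul, weylSL_conj]
  · intro τ hτ
    have h1 := orderOf_le hq hK τ hτ
    have hfin : Finite (K ≃+* K) := Finite.of_injective (fun f : K ≃+* K => (f : K → K)) DFunLike.coe_injective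
    have h3 : 0 < orderOf τ := orderOf_pos τ
    have h4 : orderOf τ ∣ d.factorial := Nat.dvd_factorial h3 h1
    rw [← map_pow, orderOf_dvd_iff_pow_eq_one.1 h4, map_one]

end Sub

section Tw

open Cfsg.Lie Cfsg.Agent.H967.CopMat Cfsg.Agent.H967.CopRow Cfsg.Agent.H967.CopTw
  Cfsg.Agent.ChevalleyStructure Cfsg.Agent.ChevalleyStructure.Elts Cfsg.Agent.H531.RMChev

variable {K : Type v} [Field K] [Fintype K] {q : ℕ}

theorem nMove_of_root {D : ChevalleyDatum} (hD : InList D) {r : ℕ} (hr : r < D.nroots)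
    {G : Subgroup (GL D.Idx K)} (R : Row G) (h2 : 2 ∣ Nat.card ↥G) {d : ℕ} (hq : 2 ≤ q)
    (hK : Fintype.card K = q ^ d) (φ : K →+* K) (hφ : ∀ x, φ x = x ^ q)
    (hup : ∀ t : K, φ t = t → xG hD r t ∈ G) (hlo : ∀ t : K, φ t = t → xG hD (D.neg r) t ∈ G)
    (hfac : ∀ p : ℕ, p.Prime → p ∣ d.factorial → p ∣ Nat.card ↥G) : NMove ↥G := by
  have e1 : ∀ t : K, SL2Hom.phi (SL2All.good_of_mem D hD r hr) K (SL2Hom.up t) = xG hD r t := fun t =>
    Units.ext (SL2Hom.phi_upper _ _ t rfl)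
  have e2 : ∀ t : K, SL2Hom.phi (SL2All.good_of_mem D hD r hr) K (SL2Hom.lo t) = xG hD (D.neg r) t := fun t =>
    Units.ext (SL2Hom.phi_lower _ _ t rfl)
  refine NMove.of_row_fixed R h2 (SL2Hom.phi (SL2All.good_of_mem D hD r hr) K) hq hK φ hφ ?_ ?_ ?_ ?_ ?_ hfac
  · intro t ht
    rw [e1]
    exact hup t ht
  · intro t ht
    rw [e2]
    exact hlo t ht
  · intro τ t
    rw [e1, e1, map_xG]
  · intro τ t
    rw [e2, e2, map_xG]
  · intro t ht
    rw [e1] at ht
    exact (xG_eq_one_iff hD hr t).1 ht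

theorem nMove_d4 (hq : IsPrimePow q) (hK : Fintype.card K = q ^ 3) : NMove ↥(twistedD4 K q) := by
  obtain ⟨φ, hφ⟩ := D4Fixed.exists_frob hq hK
  have hc := S1067.result hq hK
  have hq2 : 2 ≤ q := hq.two_le
  have h2 : 2 ∣ Nat.card ↥(twistedD4 K q) := by
    rw [hc, mul_assoc]
    exact H967.CopChev.two_dvd_of (by norm_num)
  have h3 : 3 ∣ Nat.card ↥(twistedD4 K q) := by
    rw [hc]
    rcases Nat.lt_or_ge (q % 3) 1 with h | h
    · have h3q : 3 ∣ q := Nat.dvd_of_mod_eq_zero (by omega)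
      exact ((((h3q.trans (dvd_pow_self q (by norm_num))).mul_right _).mul_right _).mul_right _)
    · have h5 : (q ^ 2) % 3 = 1 := by
        have : q % 3 = 1 ∨ q % 3 = 2 := by omega
        rcases this with h4 | h4 <;> simp [Nat.pow_mod, h4]
      have h6 : 3 ∣ q ^ 2 - 1 := by omega
      exact (((h6.mul_left _).mul_right _).mul_right _)
  refine nMove_of_root (r := 14) (D := chevD4) (by simp) (by decide) (row_d4 hq hK) h2 hq2 hK φ hφ ?_ ?_ ?_
  · intro t ht
    exact D4U.xG14_mem hφ ht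
  · intro t ht
    have h1 := D4Fixed.x9_mem (K := K) ((hφ t).symm.trans ht)
    rw [D4U.xU_eq] at h1
    exact h1
  · intro p hp hd
    have h6 : p ∣ 2 * 3 := hd
    rcases hp.dvd_mul.1 h6 with h | h
    · rw [(Nat.prime_dvd_prime_iff_eq hp Nat.prime_two).1 h]; exact h2
    · rw [(Nat.prime_dvd_prime_iff_eq hp Nat.prime_three).1 h]; exact h3

theorem nMove_2e6 (hq : IsPrimePow q) (hK : Fintype.card K = q ^ 2)
    (hs : Schreier.Basic.Sch ↥(twistedE6 K q)) (h2 : 2 ∣ Nat.card ↥(twistedE6 K q)) :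
    NMove ↥(twistedE6 K q) := by
  obtain ⟨φ, hφ, hqq⟩ := TwE6Basic.exists_frob hq hK
  refine nMove_of_root (r := 46) (D := chevE6) (by simp) (by decide) (row_2e6 hq hK hs) h2 hq.two_le hK φ hφ ?_ ?_ ?_
  · intro t ht
    exact E6Fixed.x_mem (by simp) ((hφ t).symm.trans ht)
  · intro t ht
    have hn : chevE6.neg 46 = 25 := by decide +kernel
    rw [hn]
    exact E6Fixed.x_mem (by simp) ((hφ t).symm.trans ht)
  · intro p hp hd
    have h6 : p ∣ 2 := hd
    rw [(Nat.prime_dvd_prime_iff_eq hp Nat.prime_two).1 h6]; exact h2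

end Tw

end Cfsg.Agent.H529.NMvExc
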