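import Cfsg.Agent.H529.NMove
import Cfsg.Agent.H522.RealOrth

/-!
# `NMove` for the orthogonal groups

Same proofs as in `Cfsg.Agent.H531` (helper531), `Cfsg.Agent.H71` (helper71), `Cfsg.Agent.H522` (helper522), with the
criteria of `Cfsg.Agent.H529.NMv`.
-/

set_option autoImplicit false
set_option linter.unusedSectionVars false

namespace Cfsg.Agent.H529.NMvOrth

open QuadraticMap Cfsg Cfsg.Agent.LieClassical.OrthCore Cfsg.Agent.LieClassical.OrthTrans
open Cfsg.Agent.ClassicalGeometry.OrthSemi Cfsg.Agent.ClassicalGeometry.OrthSemiCount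
open Cfsg.Agent.ClassicalGeometry.OrthSemiForms Cfsg.Agent.LieClassical.OrthSimple
  Cfsg.Agent.LieClassical.OrthForms
open Cfsg.Agent.H254 Cfsg.Agent.H254.Orth Cfsg.Agent.H531 Cfsg.Agent.Schreier.Basic
open Cfsg.Agent.ClassicalGeometry.OrthAut1 (P)
open Cfsg.Agent.UGT.U2.FOne.Orth (Four)
open Matrix (SpecialLinearGroup)
open Cfsg.Agent.H529.NMv Cfsg.Agent.H522.RealOrth

section fam

variable {F : Type*} [Field F] [Finite F] {ι : Type} [Fintype ι] [DecidableEq ι] {Q : QuadraticForm F (ι → F)}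
  {e₁ f₁ e₂ f₂ : ι → F}

/-- **The criterion.** -/
theorem nMove (hG : Good Q) (h : Four Q e₁ f₁ e₂ f₂) {σ : F ≃+* F} {M : Equiv.Perm (ι → F)}
    (hM : Fx Q e₁ f₁ e₂ f₂ σ M) (h2 : 2 ∣ Nat.card (POmega F ⇑Q)) (hco : CopIn (POmega F ⇑Q) (ind hG hM.gam)) :
    NMove (POmega F ⇑Q) := by
  obtain ⟨u, hu⟩ := IsCyclic.exists_generator (α := Fˣ)
  -- the powers
  have key : ∀ k : ℤ, (orderOf (ind hG hM.gam ^ k)).Coprime (Nat.card (POmega F ⇑Q)) →
      (ind hG hM.gam ^ k) (jj hG h (diagSL F u)) = jj hG h (diagSL F u) → ind hG hM.gam ^ k = 1 := by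
    intro k hcop h4
    rw [ind_zpow hG hM k] at hcop h4 ⊢
    have hMk := hM.zpow k
    set τ : F ≃+* F := σ ^ k with hτ
    rw [ind_jj, map_diagSL] at h4
    have h5 := jj_injective hG h h4
    have h6 : τ (u : F) = u := by
      have := congrFun (congrFun (congrArg Subtype.val h5) 0) 0
      exact this
    -- `τ = 1`
    have h7 : τ = 1 := by
      ext x
      rcases eq_or_ne x 0 with hx | hx
      · rw [hx, map_zero, map_zero]
      · obtain ⟨j, hj⟩ := Subgroup.mem_zpowers_iff.1 (hu (Units.mk0 x hx))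
        have h8 : Units.map (τ : F →* F) u = u := Units.ext h6
        have h9 : Units.map (τ : F →* F) (Units.mk0 x hx) = Units.mk0 x hx := by
          rw [← hj, map_zpow, h8]
        exact congrArg Units.val h9
    have h10 : Cfsg.Agent.H208.ConjSS.Lin hMk.gam := ⟨1, by
      have := hMk.ss
      rw [h7] at this
      exact this⟩
    obtain ⟨g, hg⟩ := Cfsg.Agent.H521.OddFixOrth.psi_pow_four_inner hG h10
    have h11 : ind hG hMk.gam ^ 4 = MulAut.conj ((pomegaEquiv hG).symm g) := by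
      unfold ind
      rw [← map_pow, hg]
      ext x
      show (pomegaEquiv hG).symm (MulAut.conj g (pomegaEquiv hG x)) = _
      rw [MulAut.conj_apply, MulAut.conj_apply, map_mul, map_mul, map_inv, MulEquiv.symm_apply_apply]
    have h12 : orderOf (ind hG hMk.gam ^ 4) ∣ Nat.card (POmega F ⇑Q) := by
      rw [h11]
      exact (orderOf_map_dvd _ _).trans (orderOf_dvd_natCard _)
    have h13 : orderOf (ind hG hMk.gam ^ 4) = 1 :=
      Nat.Coprime.eq_one_of_dvd (Nat.Coprime.coprime_dvd_left (orderOf_pow_dvd 4) hcop) h12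
    have h14 : orderOf (ind hG hMk.gam) ∣ 2 ^ 2 := orderOf_dvd_of_pow_eq_one (orderOf_eq_one_iff.1 h13)
    have h15 : (orderOf (ind hG hMk.gam)).Coprime (2 ^ 2) :=
      Nat.Coprime.pow_right 2 (Nat.Coprime.coprime_dvd_right h2 hcop)
    exact orderOf_eq_one_iff.1 (Nat.Coprime.eq_one_of_dvd h15 h14)
  refine NMove.of_copIn' hco ?_
  intro k hcop
  refine ⟨jj hG h (diagSL F u), jj hG h (weylSL F), ?_, ?_, ?_⟩
  · rw [ind_zpow hG hM k]
    have hMk := hM.zpow k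
    obtain ⟨m, hm⟩ := MonoidHom.map_cyclic (Units.map ((σ ^ k : F ≃+* F) : F →* F))
    have h3 : ind hG hMk.gam (jj hG h (diagSL F u)) = jj hG h (diagSL F u) ^ m := by
      rw [ind_jj, ← map_zpow, ← map_zpow, map_diagSL, hm]
    rw [h3]
    exact Subgroup.zpow_mem _ (Subgroup.mem_zpowers _) _
  · intro j hj
    rw [← zpow_mul] at hj ⊢
    refine key (k * j) ?_ hj
    rw [zpow_mul]
    exact Nat.Coprime.coprime_dvd_left (orderOf_dvd_of_mem_zpowers (Subgroup.zpow_mem _ (Subgroup.mem_zpowers _) j)) hcop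
  · rw [← map_inv, ← map_inv, ← map_mul, ← map_mul, weylSL_conj]

end fam

/-- The criterion with all the numerical data. -/
theorem nMove_of {F : Type*} [Field F] [Finite F] {ι : Type} [Fintype ι] [DecidableEq ι]
    {Q : QuadraticForm F (ι → F)} {e₁ f₁ e₂ f₂ : ι → F} {q : (ι → F) → F} (hq : ⇑Q = q) [Finite (POmega F q)]
    [IsSimpleGroup (POmega F q)] (hna : ¬ IsMulCommutative (POmega F q)) (h2 : 2 ∣ Nat.card (POmega F q))
    (hs : Sch (POmega F q)) (hG : Good Q) (h : Four Q e₁ f₁ e₂ f₂) {σ : F ≃+* F} {M : Equiv.Perm (ι → F)}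
    (hM : Fx Q e₁ f₁ e₂ f₂ σ M) (c f : ℕ) (hc0 : c ≠ 0) (hc : ∀ r : ℕ, r.Prime → r ∣ c → r ∣ Nat.card (POmega F q))
    (hf : f ∣ orderOf σ) (hcard : Nat.card (MulAut (POmega F q)) ∣ c * f * Nat.card (POmega F q)) :
    NMove (POmega F q) := by
  subst hq
  exact nMove hG h hM h2 (CopIn.of_card hna hs _ c hc0 hc (hcard.trans
    (Nat.mul_dvd_mul_right (Nat.mul_dvd_mul_left _ (hf.trans (orderOf_ind hG hM.ss))) _)))

variable {F : Type*} [Field F] [Fintype F] {m : ℕ}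

theorem nMove_odd (hm : 3 ≤ m) (hodd : Odd (Fintype.card F)) [Finite (Cfsg.POmega F (Cfsg.quadFormOdd m F))]
    [IsSimpleGroup (Cfsg.POmega F (Cfsg.quadFormOdd m F))]
    (hna : ¬ IsMulCommutative (Cfsg.POmega F (Cfsg.quadFormOdd m F)))
    (h2 : 2 ∣ Nat.card (Cfsg.POmega F (Cfsg.quadFormOdd m F))) :
    Cfsg.Agent.H529.NMv.NMove (Cfsg.POmega F (Cfsg.quadFormOdd m F)) := by
  obtain ⟨p, hchar⟩ := CharP.exists F
  obtain ⟨f, hp, hf⟩ := FiniteField.card F p
  have hpf : Fact p.Prime := ⟨hp⟩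
  have hpodd : Odd p := by
    rw [hf] at hodd
    exact (Nat.odd_pow_iff f.pos.ne').1 hodd
  have h20 : (2 : F) ≠ 0 := Cfsg.Agent.LieClassical.PomegaCard.odd_card_iff.1 hodd
  have hcard := S0816.result p f f.pos hf hpodd m hm
  have hf' : Nat.card (F ≃+* F) = f := Lib.FieldAutCard.card_ringAut f.pos hf
  obtain ⟨ρ, hρ, -⟩ := exists_ringAut F
  obtain ⟨M, e₁, f₁, e₂, f₂, h4, hM⟩ := odd_fx h20 (m := m) (by omega) ρ
  refine nMove_of (coe_oddForm m F) hna h2 (Schreier.ClassPOmega.sch_odd hm h20)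
    (good_odd (F := F) (m := m) (by omega) h20) h4 hM 2 f two_ne_zero ?_ (by rw [hρ, hf']) ?_
  · intro r hr hd
    rw [(Nat.prime_dvd_prime_iff_eq hr Nat.prime_two).1 hd]; exact h2
  · rw [hcard]

theorem nMove_plus (hm : 4 ≤ m) [Finite (Cfsg.POmega F (Cfsg.quadFormPlus m F))]
    [IsSimpleGroup (Cfsg.POmega F (Cfsg.quadFormPlus m F))]
    (hna : ¬ IsMulCommutative (Cfsg.POmega F (Cfsg.quadFormPlus m F)))
    (h2 : 2 ∣ Nat.card (Cfsg.POmega F (Cfsg.quadFormPlus m F))) :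
    Cfsg.Agent.H529.NMv.NMove (Cfsg.POmega F (Cfsg.quadFormPlus m F)) := by
  obtain ⟨p, hchar⟩ := CharP.exists F
  obtain ⟨f, hp, hf⟩ := FiniteField.card F p
  have hpf : Fact p.Prime := ⟨hp⟩
  have hcard := S0817.result p f f.pos hf m hm
  have hf' : Nat.card (F ≃+* F) = f := Lib.FieldAutCard.card_ringAut f.pos hf
  obtain ⟨ρ, hρ, -⟩ := exists_ringAut F
  obtain ⟨M, e₁, f₁, e₂, f₂, h4, hM⟩ := plus_fx (F := F) (m := m) (by omega) ρ
  refine nMove_of (coe_plusForm m F) hna h2 (Schreier.ClassPOmega.sch_plus hm)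
    (good_plus (F := F) (m := m) (by omega)) h4 hM (3 * 8) f (by norm_num) ?_ (by rw [hρ, hf']) ?_
  · intro r hr hd
    rcases (hr.dvd_mul).1 hd with h | h
    · rw [(Nat.prime_dvd_prime_iff_eq hr Nat.prime_three).1 h]; exact three_dvd_plus hm
    · have h4 : r ∣ 2 ^ 3 := h
      rw [(Nat.prime_dvd_prime_iff_eq hr Nat.prime_two).1 (hr.dvd_of_dvd_pow h4)]; exact h2
  · rw [hcard]
    have h6 : (if m = 4 then 3 else 1) ∣ 3 := by
      split_ifs
      · exact dvd_rfl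
      · exact one_dvd _
    have h7 : (if p = 2 then 2 else (if Even (m * (p ^ (f : ℕ) - 1) / 2) then 8 else 4)) ∣ 8 := by
      split_ifs
      · exact ⟨4, by norm_num⟩
      · exact dvd_rfl
      · exact ⟨2, by norm_num⟩
    exact Nat.mul_dvd_mul_right (Nat.mul_dvd_mul (Nat.mul_dvd_mul h6 h7) dvd_rfl) _

theorem nMove_minus (hm : 4 ≤ m) (a b : F)
    (hab : ∀ z₁ z₂ : F, z₁ ^ 2 + a * z₁ * z₂ + b * z₂ ^ 2 = 0 → z₁ = 0 ∧ z₂ = 0)
    [Finite (Cfsg.POmega F (Cfsg.quadFormMinus (m - 1) F a b))]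
    [IsSimpleGroup (Cfsg.POmega F (Cfsg.quadFormMinus (m - 1) F a b))]
    (hna : ¬ IsMulCommutative (Cfsg.POmega F (Cfsg.quadFormMinus (m - 1) F a b)))
    (h2 : 2 ∣ Nat.card (Cfsg.POmega F (Cfsg.quadFormMinus (m - 1) F a b))) :
    Cfsg.Agent.H529.NMv.NMove (Cfsg.POmega F (Cfsg.quadFormMinus (m - 1) F a b)) := by
  obtain ⟨p, hchar⟩ := CharP.exists F
  obtain ⟨f, hp, hf⟩ := FiniteField.card F p
  have hpf : Fact p.Prime := ⟨hp⟩
  have hcard := S0818.result p f f.pos hf m hm a b hab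
  have hf' : Nat.card (F ≃+* F) = f := Lib.FieldAutCard.card_ringAut f.pos hf
  obtain ⟨ρ, hρ, -⟩ := exists_ringAut F
  obtain ⟨M, e₁, f₁, e₂, f₂, h4, hM⟩ := minus_fx (F := F) (m := m - 1) (by omega) a b hab ρ
  refine nMove_of (coe_minusForm (m - 1) F a b) hna h2 (Schreier.ClassPOmega.sch_minus hm a b hab)
    (good_minus (F := F) (m := m - 1) (by omega) a b hab) h4 hM 8 f (by norm_num) ?_ (by rw [hρ, hf']) ?_
  · intro r hr hd
    have h4 : r ∣ 2 ^ 3 := hd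
    rw [(Nat.prime_dvd_prime_iff_eq hr Nat.prime_two).1 (hr.dvd_of_dvd_pow h4)]; exact h2
  · rw [hcard]
    have h7 : (if p = 2 then 2 else (if Even (m * (p ^ (f : ℕ) - 1) / 2) then 4 else 8)) ∣ 8 := by
      split_ifs
      · exact ⟨4, by norm_num⟩
      · exact ⟨2, by norm_num⟩
      · exact dvd_rfl
    exact Nat.mul_dvd_mul_right (Nat.mul_dvd_mul h7 dvd_rfl) _

end Cfsg.Agent.H529.NMvOrth
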