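import Cfsg.Agent.H529.NMove
import Cfsg.Agent.H71.RealMoveTw

/-!
# `NMove` for `Sz(q)`, `²G₂(q)`, `²F₄(q)`

Same proofs as in `Cfsg.Agent.H531` (helper531), `Cfsg.Agent.H71` (helper71), `Cfsg.Agent.H522` (helper522), with the
criteria of `Cfsg.Agent.H529.NMv`.
-/

set_option autoImplicit false

namespace Cfsg.Agent.H529.NMvTw

open Cfsg.Lie Cfsg.Agent.H531 Cfsg.Agent.H529.NMv Cfsg.Agent.H967.CopSz Cfsg.Agent.H71.RealMoveTw

universe u

section Sz

open Cfsg.Agent.LieRecognition.SzMatrix Cfsg.Agent.H70.SzOut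

variable {K : Type*} [Field K] [Fintype K] {m : ℕ}

theorem nMove_sz (hm : 1 ≤ m) (hF : Fintype.card K = 2 ^ (2 * m + 1)) :
    Cfsg.Agent.H529.NMv.NMove ↥(Cfsg.Lie.Sz K (2 ^ (m + 1))) := by
  let H := good hF
  let h : Kˣ →* ↥(Cfsg.Lie.Sz K (2 ^ (m + 1))) :=
    { toFun := H.d
      map_one' := H.d_one
      map_mul' := fun a b => (H.d_mul a b).symm }
  have hw1 : H.w ≠ 1 := fun hw => H.w_not_mem_borel (by rw [hw]; exact one_mem _)
  refine NMove.of_field_units (two_dvd H.w_mul_w hw1) _ (FieldConj.of_row (row_sz hm hF)) h ?_ ?_ ?_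
  · intro τ u
    exact Cfsg.Agent.H70.SzOut.fieldAut_d H τ u
  · intro u hu
    have : u = 1 := H.d_inj (hu.trans H.d_one.symm)
    rw [this, one_pow]
  · intro u
    refine ⟨H.w, ?_⟩
    show H.w * H.d u * H.w⁻¹ = (H.d u)⁻¹
    rw [H.w_mul_d, mul_inv_cancel_right, H.d_inv]

end Sz

/-! ### Ree groups -/

section Ree

open Cfsg.Agent.ChevalleyStructure.Ree.Gens Cfsg.Agent.ChevalleyStructure.Ree Cfsg.Agent.LieRecognition
  Cfsg.Agent.LieRecognition.ReeAbs Cfsg.Agent.ChevalleyStructure.Ree.Normal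

variable {K : Type*} [Field K] [Fintype K] {m : ℕ}

theorem nMove_ree (hm : 1 ≤ m) (hK : Fintype.card K = 3 ^ (2 * m + 1)) :
    Cfsg.Agent.H529.NMv.NMove ↥(Cfsg.Lie.twistedG2 K (3 ^ m)) := by
  obtain ⟨θ, c⟩ := exists_ctx hK
  have D := Data.data c
  refine NMove.of_field_units (two_dvd D.n_n D.n_ne_one) _
    (FieldConj.of_row (row_ree hm hK)) (MonoidHom.mk' _ D.h_mul) ?_ ?_ ?_
  · intro τ u
    exact (Cfsg.Agent.H71.FldAut.reeFld c).onH τ u
  · intro u hu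
    have : u = 1 := ReeSplit.h_injective D (hu.trans (map_one _).symm)
    rw [this, one_pow]
  · intro u
    refine ⟨Data.N c, ?_⟩
    rw [← map_inv]
    exact mul_inv_eq_iff_eq_mul.2 (D.n_h u)

end Ree

section TwF4Inst

open Cfsg.Agent.SplitTwo Cfsg.Agent.SplitTwo.RootSysZ Cfsg.Agent.KFacts.TwF4 Cfsg.Agent.KFacts.TwF4.Arc
  Cfsg.Agent.KFacts.TwF4.Inv Cfsg.Agent.TitsThree.RankTwoZ Cfsg.Agent.SplitTwo.ZS
open Cfsg.Agent.ChevalleyStructure.TwF4.TwistedFix Cfsg.Agent.KFacts.TwF4.Inst Cfsg.Agent.KFacts.TwF4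

variable {K : Type*} [Field K] [Fintype K] {m : ℕ}

theorem nMove_tf4 (hm : 1 ≤ m) (hK : Fintype.card K = 2 ^ (2 * m + 1)) :
    Cfsg.Agent.H529.NMv.NMove ↥(Cfsg.Lie.twistedF4 K (2 ^ m)) := by
  have hch : CharP K 2 := Cfsg.Agent.ChevalleyStructure.TwF4.Twisted.charP_two hK
  obtain ⟨φ, hφ⟩ := exists_rln hK
  set S := full hK hφ with hS
  let h : Kˣ →* ↥(Cfsg.Lie.twistedF4 K (2 ^ m)) := MonoidHom.mk' (fun u => S.h u 1) (fun a b => by
    have := h_mul S a 1 b 1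
    rwa [mul_one] at this)
  have h00 : S.o 0 0 = 1 := by
    have := S.o_add 0 0 0
    rw [add_zero] at this
    exact mul_eq_left.1 this
  have h01 : S.o 0 1 * S.o 0 1 = 1 := by rw [S.o_add, one_add_one_eq_two, S.two, h00]
  have h02 : S.o 0 1 ≠ 1 := fun h1 => one_ne_zero (S.injO 0 (h1.trans h00.symm))
  refine NMove.of_field_units (two_dvd h01 h02) _ (FieldConj.of_row (row_tf4 hm hK)) h ?_ ?_ ?_
  · intro τ u
    have h1 := map_h S (S2128.comm_phi τ hφ) (α := S2128.fld τ (2 ^ m)) (fun a t => S2128.fld_ro τ hφ a t)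
      (fun a p u => S2128.fld_re τ hφ a p u) u 1
    rw [map_one] at h1
    exact h1
  · intro u hu
    have h1 : S.h u 1 = S.h 1 1 := hu.trans (h_one S).symm
    rw [(S.h_inj _ _ _ _ h1).1, one_pow]
  · intro u
    refine ⟨S.rot ^ 4, ?_⟩
    rw [← map_inv]
    have := rot4_h S u 1
    rwa [inv_one] at this

end TwF4Inst

end Cfsg.Agent.H529.NMvTw
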