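import Mathlib
import Cfsg.Prelude.Def_Classification2
import Cfsg.Agent.S0205
import Cfsg.Agent.S0254
import Cfsg.Agent.H254.CopAlt
import Cfsg.Agent.H254.CopSpor
import Cfsg.Agent.H967.CopChev
import Cfsg.Agent.H529.NMoveLin
import Cfsg.Agent.H529.NMoveExc
import Cfsg.Agent.H529.NMoveTw
import Cfsg.Agent.H529.NMoveOrth

/-!
# `NMove` for the known simple groups

`nMove` : a known non-abelian finite simple group `K` satisfies `NMove K`: every automorphism `α` of `K` of order prime
to `|K|` normalises a cyclic subgroup `⟨x⟩`, `x` real, and no non-trivial power of `α` fixes `x`.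

`one`, `two` : the consequences for one automorphism of prime order, and for two commuting ones.
-/

set_option autoImplicit false

namespace Cfsg.Agent.H529.NMvMain

open Cfsg Cfsg.Agent.H529.NMv

universe u v

/-- A finite non-abelian simple group has even order. -/
theorem two_dvd (K : Type u) [Group K] [Finite K] [IsSimpleGroup K] (hna : ¬ IsMulCommutative K) : 2 ∣ Nat.card K := by
  by_contra h
  have hodd : Odd (Nat.card K) := by
    rw [← Nat.not_even_iff_odd, even_iff_two_dvd]
    exact h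
  have hs := S0205.result hodd
  apply hna
  refine ⟨⟨fun a b => ?_⟩⟩
  exact (IsSimpleGroup.comm_iff_isSolvable.2 hs) a b

/-- Transport from a model. -/
theorem of_model {M : Type v} [Group M]
    (h : Finite M → IsSimpleGroup M → ¬ IsMulCommutative M → 2 ∣ Nat.card M → NMove M)
    (K : Type u) [Group K] [Finite K] [IsSimpleGroup K] (hK : ¬ IsMulCommutative K)
    (e : Nonempty (K ≃* M)) : NMove K := by
  obtain ⟨e⟩ := e
  have h1 : Finite M := Finite.of_equiv K e.toEquiv
  have hsm : IsSimpleGroup M := e.symm.isSimpleGroup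
  have hna : ¬ IsMulCommutative M := by
    intro hc
    apply hK
    refine ⟨⟨fun a b => e.injective ?_⟩⟩
    rw [map_mul, map_mul]
    exact hc.is_comm.comm _ _
  exact (h h1 hsm hna (by rw [← Nat.card_congr e.toEquiv]; exact two_dvd K hK)).of_equiv e.symm

theorem alternating (K : Type u) [Group K] [Finite K] [IsSimpleGroup K] (hK : ¬ IsMulCommutative K)
    (h : IsAlternating K) : NMove K := by
  obtain ⟨n, hn, ⟨e⟩⟩ := h
  by_cases h6 : n = 6
  · subst h6
    haveI : Fact (Nat.Prime 3) := ⟨Nat.prime_three⟩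
    letI : Fintype (GaloisField 3 2) := Fintype.ofFinite _
    have hF : Fintype.card (GaloisField 3 2) = 9 := by
      rw [← Nat.card_eq_fintype_card, GaloisField.card 3 2 (by norm_num)]; norm_num
    obtain ⟨e'⟩ := S0254.result (F := GaloisField 3 2) hF
    exact of_model (M := Matrix.ProjectiveSpecialLinearGroup (Fin 2) (GaloisField 3 2))
      (fun _ _ h3 h4 => NMvLin.nMove_psl le_rfl (fun _ => by omega) h3 h4) K hK ⟨e.trans e'.symm⟩
  · exact NMove.of_copTriv ((H254.Alt.copTriv hn h6).of_equiv e.symm)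

/-- **`NMove` for the known non-abelian simple groups.** -/
theorem nMove (K : Type u) [Group K] [Finite K] [IsSimpleGroup K] (hna : ¬ IsMulCommutative K)
    (hk : IsKnownSimple' K) : NMove K := by
  rcases hk with hk | hk | hk | hk | hk | hk | hk | hk | hk | hk
  · exfalso
    apply hna
    have h1 : Fact (Nat.card K).Prime := ⟨hk⟩
    have h2 : IsCyclic K := isCyclic_of_prime_card (p := Nat.card K) rfl
    exact IsCyclic.isMulCommutative
  · exact alternating K hna hk
  · obtain ⟨F, _, _, n, hn, h4, e⟩ := hk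
    exact of_model (fun _ _ h1 h2 => NMvLin.nMove_psl hn h4 h1 h2) K hna e
  · obtain ⟨F, _, _, m, hm, h3, e⟩ := hk
    exact of_model (fun _ _ h1 h2 => NMvLin.nMove_psp hm h3 h1 h2) K hna e
  · obtain ⟨F, _, _, n, q, hF, hn, h32, e⟩ := hk
    exact of_model (fun _ _ h1 h2 => NMvLin.nMove_psu hF hn h32 h1 h2) K hna e
  · obtain ⟨F, _, _, m, hm, hodd, e⟩ := hk
    exact of_model (fun _ _ h1 h2 => NMvOrth.nMove_odd hm hodd h1 h2) K hna e
  · obtain ⟨F, _, _, m, hm, e⟩ := hk
    exact of_model (fun _ _ h1 h2 => NMvOrth.nMove_plus hm h1 h2) K hna e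
  · obtain ⟨F, _, _, m, a, b, hm, hab, e⟩ := hk
    exact of_model (fun _ _ h1 h2 => NMvOrth.nMove_minus hm a b hab h1 h2) K hna e
  · rcases hk with hk | hk | hk | hk | hk | hk | hk | hk | hk | hk | hk
    · obtain ⟨F, _, _, h3, e⟩ := hk
      exact of_model (fun _ _ _ h2 => NMvExc.nMove_chev (by simp) (H967.CopChev.row_g2 h3) h2) K hna e
    · obtain ⟨F, _, _, e⟩ := hk
      exact of_model (fun _ _ _ h2 => NMvExc.nMove_chev (by simp) H967.CopChev.row_f4 h2) K hna e
    · obtain ⟨F, _, _, e⟩ := hk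
      exact of_model (fun _ _ _ h2 => NMvExc.nMove_chev (by simp) H967.CopChev.row_e6 h2) K hna e
    · obtain ⟨F, _, _, e⟩ := hk
      exact of_model (fun _ _ _ h2 => NMvExc.nMove_chev (by simp) H967.CopChev.row_e7 h2) K hna e
    · obtain ⟨F, _, _, e⟩ := hk
      exact of_model (fun _ _ _ h2 => NMvExc.nMove_chev (by simp) H967.CopChev.row_e8 h2) K hna e
    · obtain ⟨F, _, _, q, hq, hF, e⟩ := hk
      exact of_model (fun _ _ _ h2 => NMvExc.nMove_2e6 hq hF (Schreier.TwESix.sch hq hF) h2) K hna e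
    · obtain ⟨F, _, _, q, hq, hF, e⟩ := hk
      exact of_model (fun _ _ _ _ => NMvExc.nMove_d4 hq hF) K hna e
    · obtain ⟨F, _, _, m, hm, hF, e⟩ := hk
      exact of_model (fun _ _ _ _ => NMvTw.nMove_sz hm hF) K hna e
    · obtain ⟨F, _, _, m, hm, hF, e⟩ := hk
      exact of_model (fun _ _ _ _ => NMvTw.nMove_ree hm hF) K hna e
    · obtain ⟨F, _, _, m, hm, hF, e⟩ := hk
      exact of_model (fun _ _ _ _ => NMvTw.nMove_tf4 hm hF) K hna e
    · exact NMove.of_copTriv (H254.CopSpor.tits_triv hk)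
  · exact NMove.of_copTriv (H254.CopSpor.sporadic_triv hk)

/-- **One coprime automorphism of prime order** moves a generator of an invariant cyclic subgroup. -/
theorem one {K : Type u} [Group K] [Finite K] [IsSimpleGroup K] (hna : ¬ IsMulCommutative K)
    (hk : IsKnownSimple' K) {p : ℕ} (hp : p.Prime) (hpK : ¬ p ∣ Nat.card K)
    {a : MulAut K} (ha : a ^ p = 1) (ha1 : a ≠ 1) : ∃ t : K, a t ∈ Subgroup.zpowers t ∧ a t ≠ t :=
  (nMove K hna hk).one hp hpK ha ha1

/-- **Two commuting coprime automorphisms of different prime orders** move a generator of a common invariant cyclic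
subgroup. -/
theorem two {K : Type u} [Group K] [Finite K] [IsSimpleGroup K] (hna : ¬ IsMulCommutative K)
    (hk : IsKnownSimple' K) {p q : ℕ} (hp : p.Prime) (hq : q.Prime) (hpq : p ≠ q)
    (hpK : ¬ p ∣ Nat.card K) (hqK : ¬ q ∣ Nat.card K) {a b : MulAut K} (hab : Commute a b)
    (ha : a ^ p = 1) (ha1 : a ≠ 1) (hb : b ^ q = 1) (hb1 : b ≠ 1) :
    ∃ t : K, a t ∈ Subgroup.zpowers t ∧ b t ∈ Subgroup.zpowers t ∧ a t ≠ t ∧ b t ≠ t :=
  (nMove K hna hk).two hp hq hpq hpK hqK hab ha ha1 hb hb1

end Cfsg.Agent.H529.NMvMain
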